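import Mathlib

/-! Covers of graphs in which triangles lift, and amalgams over simply connected graphs. -/

set_option autoImplicit false

namespace Cfsg.Agent.O7

open Subgroup

universe u

/-- `π` is a connected cover of the graph `adj` on the vertex set `S`, and triangles lift. -/
structure IsCov {X Y : Type*} (S : Set X) (adj : X → X → Prop) (π : Y → X) (A : Y → Y → Prop) : Prop where
  mem : ∀ a, π a ∈ S
  symm : ∀ a b, A a b → A b a
  map : ∀ a b, A a b → adj (π a) (π b)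
  lift : ∀ a x, adj (π a) x → ∃ b, A a b ∧ π b = x
  uniq : ∀ a b c, A a b → A a c → π b = π c → b = c
  tri : ∀ a b c, A a b → A a c → adj (π b) (π c) → A b c
  conn : ∀ a b, Relation.ReflTransGen A a b

theorem mem_of_fix {G : Type u} {Ω : Type*} [Group G] {S : Set Ω} {adj : Ω → Ω → Prop}
    {ρ : G →* Equiv.Perm Ω} {H : Subgroup G} {s : G} {v : Ω}
    (SC : ∀ {Y : Type u} {p : Y → Ω} {A : Y → Y → Prop}, IsCov S adj p A → Function.Injective p)
    (mem : ∀ g, ρ g v ∈ S) (adjc : ∀ g x y, adj x y → adj (ρ g x) (ρ g y))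
    (fix : ∀ h ∈ H, ρ h v = v) (sq : s * s ∈ H) (edge : adj v (ρ s v))
    (lift : ∀ x, adj v x → ∃ h ∈ H, ρ h (ρ s v) = x)
    (uniq : ∀ h ∈ H, ρ h (ρ s v) = ρ s v → s⁻¹ * h * s ∈ H)
    (tri : ∀ h ∈ H, adj (ρ s v) (ρ h (ρ s v)) → ∃ a ∈ H, ∃ b ∈ H, s⁻¹ * h * s = a * s * b)
    {x : G} (hx : x ∈ closure (insert s (H : Set G))) (e : ρ x v = v) : x ∈ H := by
  generalize gen : closure (insert s (H : Set G)) = L at hx
  have hH : H ≤ L := fun h hh => gen ▸ subset_closure (Or.inr hh)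
  have hs : s ∈ L := gen ▸ subset_closure (Or.inl rfl)
  have cj : ∀ (g k : G) y, ρ (g * k) y = ρ g (ρ k y) := fun g k y => by rw [map_mul]; rfl
  let f : G ⧸ H → Ω := fun c => Quotient.liftOn' c (fun g => ρ g v) fun a b hab => by
    have := fix _ (QuotientGroup.leftRel_apply.1 hab)
    nth_rewrite 1 [← this]
    rw [← cj, mul_inv_cancel_left]
  have hf : ∀ g : G, f g = ρ g v := fun _ => rfl
  let Y := {c : G ⧸ H // ∃ g ∈ L, (g : G ⧸ H) = c}
  let A : Y → Y → Prop := fun a b => ∃ g ∈ L, (g : G ⧸ H) = a.1 ∧ ((g * s : G) : G ⧸ H) = b.1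
  have q : ∀ {g k : G}, (g : G ⧸ H) = k → ∃ h ∈ H, k = g * h := fun {g k} h =>
    ⟨g⁻¹ * k, QuotientGroup.eq.1 h, by group⟩
  have q' : ∀ (g : G) {h : G}, h ∈ H → ((g * h : G) : G ⧸ H) = g := fun g _ hh =>
    QuotientGroup.mk_mul_of_mem g hh
  have two : ∀ {a b c : Y}, A a b → A a c → ∃ g ∈ L, ∃ h ∈ H, (g : G ⧸ H) = a.1 ∧
      ((g * s : G) : G ⧸ H) = b.1 ∧ ((g * (h * s) : G) : G ⧸ H) = c.1 := by
    rintro a b c ⟨g, g1, g2, g3⟩ ⟨k, -, k2, k3⟩
    obtain ⟨h, hh, rfl⟩ := q (g2.trans k2.symm)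
    exact ⟨g, g1, h, hh, g2, g3, by rw [← mul_assoc, k3]⟩
  have C : IsCov S adj (fun a : Y => f a.1) A := by
    refine ⟨?_, ?_, ?_, ?_, ?_, ?_, ?_⟩
    · rintro ⟨_, g, hg, rfl⟩
      exact mem g
    · rintro a b ⟨g, g1, g2, g3⟩
      exact ⟨g * s, mul_mem g1 hs, g3, by rw [mul_assoc, q' g sq, g2]⟩
    · rintro a b ⟨g, g1, g2, g3⟩
      rw [← g2, ← g3, hf, hf, cj]
      exact adjc g _ _ edge
    · rintro ⟨_, g, hg, rfl⟩ y hy
      have := adjc g⁻¹ _ _ hy
      rw [hf, ← cj, inv_mul_cancel, map_one, Equiv.Perm.one_apply] at this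
      obtain ⟨h, hh, e⟩ := lift _ this
      have m := mul_mem hg (hH hh)
      refine ⟨⟨_, g * h * s, mul_mem m hs, rfl⟩, ⟨g * h, m, q' g hh, rfl⟩, ?_⟩
      change f (g * h * s : G) = y
      rw [hf, mul_assoc g, cj, cj, e, ← cj, mul_inv_cancel, map_one, Equiv.Perm.one_apply]
    · intro a b c h1 h2 e
      obtain ⟨g, -, h, hh, -, g3, g4⟩ := two h1 h2
      rw [← g3, ← g4, hf, hf, cj, cj g, cj h, (ρ g).apply_eq_iff_eq] at e
      refine Subtype.ext (g3.symm.trans (Eq.trans (QuotientGroup.eq.2 ?_) g4))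
      convert uniq h hh e.symm using 1
      group
    · intro a b c h1 h2 t
      obtain ⟨g, g1, h, hh, g2, g3, g4⟩ := two h1 h2
      have := adjc g⁻¹ _ _ t
      rw [← g3, ← g4, hf, hf, ← cj, ← cj, inv_mul_cancel_left, inv_mul_cancel_left, cj] at this
      obtain ⟨y, hy, z, hz, e⟩ := tri h hh this
      refine ⟨g * s * y, mul_mem (mul_mem g1 hs) (hH hy), (q' _ hy).trans g3, ?_⟩
      rw [← g4, show g * (h * s) = g * s * y * s * z by
        rw [mul_assoc (g * s), mul_assoc (g * s), ← e]; group, q' _ hz]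
    · have sy : ∀ {a b : Y}, Relation.ReflTransGen A a b → Relation.ReflTransGen A b a := fun h => by
        induction h with
        | refl => rfl
        | tail _ k ih =>
          obtain ⟨g, g1, g2, g3⟩ := k
          exact ih.head ⟨g * s, mul_mem g1 hs, g3, by rw [mul_assoc, q' g sq, g2]⟩
      have key : ∀ k ∈ L, ∀ g (hg : g ∈ L), ∀ hk, Relation.ReflTransGen A ⟨g, g, hg, rfl⟩
          ⟨(g * k : G), g * k, hk, rfl⟩ := fun k hk => by
        rw [← gen] at hk
        induction hk using closure_induction with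
        | mem x hx =>
          intro g hg m
          rcases hx with rfl | hx
          · exact .single ⟨g, hg, rfl, rfl⟩
          · rw [show (⟨(g * x : G), g * x, m, rfl⟩ : Y) = ⟨g, g, hg, rfl⟩ from Subtype.ext (q' g hx)]
        | one => intro g hg m; simp only [mul_one]; rfl
        | mul x y hx _ ix iy =>
          intro g hg m
          have := mul_mem hg (gen ▸ hx : x ∈ L)
          simpa only [mul_assoc] using (ix g hg this).trans (iy _ this (mul_assoc g x y ▸ m))
        | inv x _ ix =>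
          intro g hg m
          have := ix _ m (by simpa using hg)
          simp only [inv_mul_cancel_right] at this
          exact sy this
      rintro ⟨_, g, hg, rfl⟩ ⟨_, k, hk, rfl⟩
      simpa only [mul_inv_cancel_left] using key _ (mul_mem (inv_mem hg) hk) g hg (by simpa using hk)
  have := SC C (a₁ := ⟨(1 : G), 1, one_mem _, rfl⟩) (a₂ := ⟨x, x, hx, rfl⟩) (by
    change f (1 : G) = f x
    rw [hf, hf, e, map_one, Equiv.Perm.one_apply])
  simpa using QuotientGroup.eq.1 (congrArg Subtype.val this)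

end Cfsg.Agent.O7
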